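import Mathlib

/-!
# Coprime automorphism groups of abelian p-groups
-/

set_option autoImplicit false

namespace CfsgLib.CoprimeAbelAut

universe u v

variable {A : Type u} [CommGroup A] {X : Type v} [Group X]

/-- Invariance of a subgroup under an action. -/
def Inv (T : X →* MulAut A) (B : Subgroup A) : Prop := ∀ x : X, B.map (T x).toMonoidHom = B

theorem Inv.mem {T : X →* MulAut A} {B : Subgroup A} (h : Inv T B) (x : X) {a : A} (ha : a ∈ B) : T x a ∈ B := by
  exact (h x).le ⟨a, ha, rfl⟩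

theorem inv_of_mem {T : X →* MulAut A} {B : Subgroup A} (h : ∀ (x : X), ∀ a ∈ B, T x a ∈ B) : Inv T B := by
  intro x
  refine le_antisymm ?_ ?_
  · rintro _ ⟨a, ha, rfl⟩; exact h x a ha
  · intro a ha
    refine ⟨T x⁻¹ a, h x⁻¹ a ha, ?_⟩
    show T x (T x⁻¹ a) = a
    rw [← MulAut.mul_apply, ← map_mul, mul_inv_cancel, map_one]
    rfl

/-- A section of a quotient with the lifting property. -/
theorem exists_section [Finite A] (V : Subgroup A)
    (hlift : ∀ (a : A) (n : ℕ), a ^ n ∈ V → ∃ v ∈ V, (a * v) ^ n = 1) :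
    ∃ s : A ⧸ V →* A, ∀ q : A ⧸ V, QuotientGroup.mk (s q) = q := by
  classical
  obtain ⟨ι, _, n, hn, ⟨e⟩⟩ := CommGroup.equiv_prod_multiplicative_zmod_of_finite (A ⧸ V)
  let g : ∀ i, Multiplicative (ZMod (n i)) := fun i => Multiplicative.ofAdd 1
  have hg : ∀ i, ∀ x, x ∈ Subgroup.zpowers (g i) := by
    intro i x
    obtain ⟨k, hk⟩ := ZMod.intCast_surjective (Multiplicative.toAdd x)
    refine ⟨k, ?_⟩
    apply Multiplicative.toAdd.injective
    show Multiplicative.toAdd ((g i) ^ k) = _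
    rw [toAdd_zpow, ← hk]
    simp [g]
  have hl : ∀ i, ∃ b : A, (QuotientGroup.mk b : A ⧸ V) = e.symm (Pi.mulSingle i (g i)) ∧ orderOf b ∣ orderOf (g i) := by
    intro i
    obtain ⟨a, ha⟩ := QuotientGroup.mk_surjective (e.symm (Pi.mulSingle i (g i)))
    obtain ⟨v, hv, hv1⟩ := hlift a (orderOf (g i)) (by
      rw [← QuotientGroup.eq_one_iff, QuotientGroup.mk_pow, ha, ← map_pow]
      have : (Pi.mulSingle i (g i) : ∀ j, Multiplicative (ZMod (n j))) ^ orderOf (g i) = 1 := by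
        rw [← Pi.mulSingle_pow, pow_orderOf_eq_one, Pi.mulSingle_one]
      rw [this, map_one])
    refine ⟨a * v, ?_, orderOf_dvd_of_pow_eq_one hv1⟩
    rw [QuotientGroup.mk_mul_of_mem a hv, ha]
  choose b hb hbo using hl
  let φ : ∀ i, Multiplicative (ZMod (n i)) →* A := fun i => monoidHomOfForallMemZpowers (hg i) (hbo i)
  let s₀ : (∀ i, Multiplicative (ZMod (n i))) →* A := ∏ i, (φ i).comp (Pi.evalMonoidHom _ i)
  refine ⟨s₀.comp e.toMonoidHom, fun q => ?_⟩
  have key : (QuotientGroup.mk' V).comp s₀ = e.symm.toMonoidHom := by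
    refine MonoidHom.pi_ext fun i x => ?_
    obtain ⟨k, rfl⟩ := hg i x
    have h1 : s₀ (Pi.mulSingle i ((g i) ^ k)) = (b i) ^ k := by
      simp only [s₀, MonoidHom.finsetProd_apply, MonoidHom.comp_apply, Pi.evalMonoidHom_apply]
      rw [Finset.prod_eq_single i]
      · rw [Pi.mulSingle_eq_same, map_zpow, monoidHomOfForallMemZpowers_apply_gen]
      · intro j _ hj
        rw [Pi.mulSingle_eq_of_ne hj, map_one]
      · simp
    simp only [MonoidHom.comp_apply, QuotientGroup.mk'_apply, MulEquiv.coe_toMonoidHom]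
    rw [h1, QuotientGroup.mk_zpow, hb, ← map_zpow, Pi.mulSingle_zpow]
  have h2 := DFunLike.congr_fun key (e q)
  simpa using h2

/-- An invariant subgroup with the lifting property has an invariant complement. -/
theorem exists_invariant_complement [Finite A] [Finite X] (T : X →* MulAut A)
    (hcop : (Nat.card X).Coprime (Nat.card A)) (V : Subgroup A) (hV : Inv T V)
    (hlift : ∀ (a : A) (n : ℕ), a ^ n ∈ V → ∃ v ∈ V, (a * v) ^ n = 1) :
    ∃ C : Subgroup A, Inv T C ∧ V ⊓ C = ⊥ ∧ V ⊔ C = ⊤ := by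
  classical
  haveI := Fintype.ofFinite X
  obtain ⟨s, hs⟩ := exists_section V hlift
  let r : A →* A := MonoidHom.id A / s.comp (QuotientGroup.mk' V)
  have hrV : ∀ a, r a ∈ V := fun a => by
    rw [← QuotientGroup.eq_one_iff]
    simp [r, hs]
  have hrfix : ∀ a ∈ V, r a = a := fun a ha => by
    simp [r, (QuotientGroup.eq_one_iff a).mpr ha]
  obtain ⟨k, hk⟩ := Nat.exists_mul_mod_eq_of_coprime 1 hcop (Nat.card_pos.ne')
  let R₀ : A →* A := ∏ x : X, ((T x).toMonoidHom.comp r).comp (T x⁻¹).toMonoidHom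
  let R : A →* A := R₀ ^ k
  have hR₀ : ∀ a, R₀ a = ∏ x : X, T x (r (T x⁻¹ a)) := fun a => by
    simp [R₀, MonoidHom.finsetProd_apply]
  have hR₀V : ∀ a, R₀ a ∈ V := fun a => by
    rw [hR₀]; exact Subgroup.prod_mem _ fun x _ => hV.mem x (hrV _)
  have hRfix : ∀ a ∈ V, R a = a := by
    intro a ha
    have h1 : R₀ a = a ^ Nat.card X := by
      rw [hR₀, Finset.prod_congr rfl (g := fun _ => a) (fun x _ => by
        rw [hrfix _ (hV.mem _ ha), ← MulAut.mul_apply, ← map_mul, mul_inv_cancel, map_one, MulAut.one_apply]),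
        Finset.prod_const, Finset.card_univ, Nat.card_eq_fintype_card]
    show (R₀ a) ^ k = a
    rw [h1, ← pow_mul, ← pow_mod_natCard, hk.2, pow_mod_natCard, pow_one]
  refine ⟨R.ker, inv_of_mem fun y a ha => ?_, ?_, ?_⟩
  · have hcomm : R₀ (T y a) = T y (R₀ a) := by
      rw [hR₀, hR₀, map_prod, ← Equiv.prod_comp (Equiv.mulLeft y)]
      refine Finset.prod_congr rfl fun x _ => ?_
      simp only [Equiv.coe_mulLeft]
      rw [show T (y * x)⁻¹ (T y a) = T x⁻¹ a by rw [← MulAut.mul_apply, ← map_mul]; group, map_mul, MulAut.mul_apply]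
    rw [MonoidHom.mem_ker] at ha ⊢
    show (R₀ (T y a)) ^ k = 1
    rw [hcomm, ← map_pow, show (R₀ a) ^ k = 1 from ha, map_one]
  · rw [Subgroup.eq_bot_iff_forall]
    rintro a ⟨ha, hk'⟩
    rw [← hRfix a ha]; exact hk'
  · rw [eq_top_iff]
    intro a _
    rw [← mul_inv_cancel_left (R a) a]
    refine Subgroup.mul_mem_sup (V.pow_mem (hR₀V a) k) ?_
    rw [MonoidHom.mem_ker, map_mul, map_inv, show R (R a) = R a from hRfix _ (V.pow_mem (hR₀V a) k), inv_mul_cancel]

variable {p : ℕ} [hp : Fact p.Prime]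

/-- Elements whose `p^i`-th power lies in `V`. -/
def omega (p : ℕ) (V : Subgroup A) (i : ℕ) : Subgroup A := V.comap (powMonoidHom (p ^ i))

omit hp in
theorem mem_omega {V : Subgroup A} {i : ℕ} {a : A} : a ∈ omega p V i ↔ a ^ p ^ i ∈ V := Iff.rfl

omit hp in
theorem inv_omega {T : X →* MulAut A} {V : Subgroup A} (hV : Inv T V) (i : ℕ) : Inv T (omega p V i) :=
  inv_of_mem fun x a ha => by rw [mem_omega, ← map_pow]; exact hV.mem x ha

/-- Irreducibility of the bottom layer makes all invariant subgroups characteristic layers. -/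
theorem eq_omega [Finite A] (hA : IsPGroup p A) (T : X →* MulAut A) (V : Subgroup A) (hV : Inv T V)
    (hirr : ∀ B, Inv T B → V ≤ B → B ≤ omega p V 1 → B = V ∨ B = omega p V 1)
    (B : Subgroup A) (hB : Inv T B) (hVB : V ≤ B) : ∃ i, ∀ a, a ∈ B ↔ a ^ p ^ i ∈ V := by
  classical
  obtain ⟨i, hi⟩ : ∃ i, ∀ a ∈ B, a ^ p ^ i ∈ V := by
    obtain ⟨N, hN⟩ := IsPGroup.iff_card.mp hA
    exact ⟨N, fun a _ => by rw [← hN, pow_card_eq_one']; exact V.one_mem⟩
  induction i generalizing B with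
  | zero => exact ⟨0, fun a => ⟨fun h => hi a h, fun h => hVB (by simpa using h)⟩⟩
  | succ i ih =>
    by_cases hall : ∀ a ∈ B, a ^ p ^ i ∈ V
    · exact ih B hB hVB hall
    refine ⟨i + 1, fun a => ⟨fun h => hi a h, ?_⟩⟩
    -- `Ω₁ ≤ (B ^ p^i) V`
    let Bi : Subgroup A := B.map (powMonoidHom (p ^ i)) ⊔ V
    have hBiinv : Inv T Bi := by
      intro x
      show (B.map (powMonoidHom (p ^ i)) ⊔ V).map (T x).toMonoidHom = _
      rw [Subgroup.map_sup, hV x, Subgroup.map_map,
        show (T x).toMonoidHom.comp (powMonoidHom (p ^ i)) = (powMonoidHom (p ^ i)).comp (T x).toMonoidHom from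
          MonoidHom.ext fun a => map_pow (T x) a _,
        ← Subgroup.map_map, hB x]
    have hBile : Bi ≤ omega p V 1 := by
      refine sup_le ?_ (fun a ha => V.pow_mem ha _)
      rintro _ ⟨b, hb, rfl⟩
      rw [mem_omega, powMonoidHom_apply, pow_one, ← pow_mul, ← pow_succ]
      exact hi b hb
    have hBieq : Bi = omega p V 1 := by
      refine (hirr Bi hBiinv le_sup_right hBile).resolve_left fun h => hall fun a ha => ?_
      exact h.le (Subgroup.mem_sup_left ⟨a, ha, rfl⟩)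
    -- induction on the elements
    have key : ∀ j, j ≤ i + 1 → ∀ a, a ^ p ^ j ∈ V → a ∈ B := by
      intro j
      induction j with
      | zero => intro _ a h; exact hVB (by simpa using h)
      | succ j ihj =>
        intro hj a h
        have h1 : a ^ p ^ j ∈ Bi := hBieq.symm.le (by rw [mem_omega, pow_one, ← pow_mul, ← pow_succ]; exact h)
        obtain ⟨_, ⟨b, hb, rfl⟩, v, hv, hbv⟩ := Subgroup.mem_sup.mp h1
        set c := b ^ p ^ (i - j) with hc
        have hcj : c ^ p ^ j = b ^ p ^ i := by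
          rw [hc, ← pow_mul, ← pow_add, Nat.sub_add_cancel (Nat.le_of_succ_le_succ hj)]
        have h2 : (a * c⁻¹) ^ p ^ j ∈ V := by
          rw [mul_pow, inv_pow, hcj, ← hbv]
          simpa using hv
        have := B.mul_mem (ihj (by omega) _ h2) (B.pow_mem hb (p ^ (i - j)))
        rwa [← hc, inv_mul_cancel_right] at this
    exact key (i + 1) le_rfl a

/-- Restriction of an action to an invariant subgroup. -/
def restrict (T : X →* MulAut A) (W : Subgroup A) (hW : Inv T W) : X →* MulAut W where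
  toFun x :=
    { toFun := fun a => ⟨T x a, hW.mem x a.2⟩
      invFun := fun a => ⟨T x⁻¹ a, hW.mem x⁻¹ a.2⟩
      left_inv := fun a => Subtype.ext (by
        show T x⁻¹ (T x a) = a
        rw [← MulAut.mul_apply, ← map_mul, inv_mul_cancel, map_one]; rfl)
      right_inv := fun a => Subtype.ext (by
        show T x (T x⁻¹ a) = a
        rw [← MulAut.mul_apply, ← map_mul, mul_inv_cancel, map_one]; rfl)
      map_mul' := fun a b => Subtype.ext (map_mul (T x) _ _) }
  map_one' := MulEquiv.ext fun a => Subtype.ext (show T 1 (a : A) = a by rw [map_one]; rfl)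
  map_mul' x y := MulEquiv.ext fun a => Subtype.ext (show T (x * y) (a : A) = T x (T y a) by rw [map_mul]; rfl)

/-- Passage of an action to an invariant quotient. -/
def onQuot (T : X →* MulAut A) (V : Subgroup A) (hV : Inv T V) : X →* MulAut (A ⧸ V) where
  toFun x := QuotientGroup.congr V V (T x) (hV x)
  map_one' := MulEquiv.ext fun q => by
    induction q using QuotientGroup.induction_on with
    | _ a => simp
  map_mul' x y := MulEquiv.ext fun q => by
    induction q using QuotientGroup.induction_on with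
    | _ a =>
      show (QuotientGroup.mk (T (x * y) a) : A ⧸ V) = QuotientGroup.mk (T x (T y a))
      rw [map_mul]; rfl

theorem onQuot_mk (T : X →* MulAut A) (V : Subgroup A) (hV : Inv T V) (x : X) (a : A) :
    onQuot T V hV x (QuotientGroup.mk a) = QuotientGroup.mk (T x a) := by
  rfl

/-- Lifting property inside an elementary abelian group. -/
theorem lift_elementary {E : Type u} [CommGroup E] (he : ∀ a : E, a ^ p = 1) (V : Subgroup E) (a : E) (n : ℕ)
    (ha : a ^ n ∈ V) : ∃ v ∈ V, (a * v) ^ n = 1 := by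
  by_cases h : p ∣ n
  · obtain ⟨c, rfl⟩ := h
    exact ⟨1, V.one_mem, by rw [mul_one, pow_mul, he, one_pow]⟩
  · have hcop : Nat.Coprime n p := (hp.out.coprime_iff_not_dvd.mpr h).symm
    obtain ⟨l, hl⟩ := exists_pow_eq_self_of_coprime
      (hcop.coprime_dvd_right (orderOf_dvd_of_pow_eq_one (he a))) (x := a)
    exact ⟨a⁻¹, V.inv_mem (hl ▸ V.pow_mem ha l), by rw [mul_inv_cancel, one_pow]⟩

/-- The main construction: a reducible bottom layer gives a decomposition. -/
theorem exists_decomposition [Finite A] [Finite X] (hA : IsPGroup p A) (T : X →* MulAut A)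
    (hcop : (Nat.card X).Coprime p) (B₀ : Subgroup A) (hB₀ : Inv T B₀) (hB₀p : ∀ b ∈ B₀, b ^ p = 1)
    (hB₀1 : B₀ ≠ ⊥) (hB₀2 : ¬ ∀ a : A, a ∈ B₀ ↔ a ^ p = 1) :
    ∃ B C : Subgroup A, B ≠ ⊥ ∧ C ≠ ⊥ ∧ Inv T B ∧ Inv T C ∧ B ⊓ C = ⊥ ∧ B ⊔ C = ⊤ := by
  classical
  have hcard : ∀ (E : Type u) [Group E] [Finite E], IsPGroup p E → (Nat.card X).Coprime (Nat.card E) := by
    intro E _ _ hE
    obtain ⟨N, hN⟩ := IsPGroup.iff_card.mp hE
    rw [hN]; exact hcop.pow_right N
  -- the top layer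
  have htriv : ∃ a : A, a ≠ 1 := by
    by_contra h; push Not at h
    exact hB₀1 ((Subgroup.eq_bot_iff_forall _).mpr fun b _ => h b)
  obtain ⟨N, hN⟩ := IsPGroup.iff_card.mp hA
  have hexN : ∀ a : A, a ^ p ^ N = 1 := fun a => by rw [← hN, pow_card_eq_one']
  have hex : ∃ e, ∀ a : A, a ^ p ^ e = 1 := ⟨N, hexN⟩
  set e := Nat.find hex with he_def
  have he : ∀ a : A, a ^ p ^ e = 1 := Nat.find_spec hex
  have he0 : e ≠ 0 := by
    intro h0
    obtain ⟨a, ha⟩ := htriv
    apply ha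
    have := he a
    rwa [h0, pow_zero, pow_one] at this
  set Top : Subgroup A := (powMonoidHom (α := A) (p ^ (e - 1))).range with hTop
  have hTopinv : Inv T Top := inv_of_mem fun x a ha => by
    obtain ⟨b, rfl⟩ := ha
    exact ⟨T x b, (map_pow (T x) b _).symm⟩
  have hTopne : Top ≠ ⊥ := by
    intro h
    refine Nat.find_min hex (show e - 1 < e by omega) fun a => ?_
    exact Subgroup.mem_bot.mp (h ▸ ⟨a, rfl⟩ : a ^ p ^ (e - 1) ∈ (⊥ : Subgroup A))
  obtain ⟨U, ⟨hUi, hUne, hUT⟩, hUmin⟩ := WellFounded.has_min (α := Subgroup A) wellFounded_lt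
    {U | Inv T U ∧ U ≠ ⊥ ∧ U ≤ Top} ⟨Top, hTopinv, hTopne, le_rfl⟩
  have hUirr : ∀ W, Inv T W → W ≤ U → W = ⊥ ∨ W = U := fun W hW hle => by
    by_contra hh
    push Not at hh
    exact hUmin W ⟨hW, hh.1, hle.trans hUT⟩ (lt_of_le_of_ne hle hh.2)
  have hUp : ∀ u ∈ U, u ^ p = 1 := fun u hu => by
    obtain ⟨b, rfl⟩ := hUT hu
    rw [powMonoidHom_apply, ← pow_mul, ← pow_succ, Nat.sub_add_cancel (Nat.pos_of_ne_zero he0)]
    exact he b
  obtain ⟨V, ⟨hVi, hVU⟩, hVmax⟩ := WellFounded.has_min (α := Subgroup A) wellFounded_gt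
    {V | Inv T V ∧ V ⊓ U = ⊥} ⟨⊥, inv_of_mem fun x a ha => by simp_all, bot_inf_eq U⟩
  -- the bottom layer of `A ⧸ V` is the image of `U`
  have hmeet : ∀ R, Inv T R → V ≤ R → R ≠ V → U ≤ R := by
    intro R hR hle hne
    have h1 : R ⊓ U ≠ ⊥ := fun h => hVmax R ⟨hR, h⟩ (lt_of_le_of_ne hle hne.symm)
    have h2 : R ⊓ U = U := (hUirr _ (inv_of_mem fun x a ha => Subgroup.mem_inf.mpr ⟨hR.mem x ha.1, hUi.mem x ha.2⟩) inf_le_right).resolve_left h1
    exact inf_eq_right.mp h2
  set W := omega p V 1 with hW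
  have hWi : Inv T W := inv_omega hVi 1
  have hUW : U ≤ W := fun u hu => by rw [mem_omega, pow_one, hUp u hu]; exact V.one_mem
  have hVW : V ≤ W := fun v hv => V.pow_mem hv _
  let TW := onQuot T V hVi
  let Ω : Subgroup (A ⧸ V) := W.map (QuotientGroup.mk' V)
  have hΩi : Inv TW Ω := inv_of_mem fun x q hq => by
    obtain ⟨a, ha, rfl⟩ := hq
    exact ⟨T x a, hWi.mem x ha, (onQuot_mk T V hVi x a).symm⟩
  have hΩp : ∀ q : Ω, q ^ p = 1 := by
    rintro ⟨q, a, ha, rfl⟩
    apply Subtype.ext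
    show (QuotientGroup.mk a : A ⧸ V) ^ p = 1
    rw [← QuotientGroup.mk_pow, QuotientGroup.eq_one_iff]
    simpa [hW, mem_omega] using ha
  let U' : Subgroup Ω := (U.map (QuotientGroup.mk' V)).subgroupOf Ω
  have hWeq : W = U ⊔ V := by
    obtain ⟨R', hR'i, hR'1, hR'2⟩ := exists_invariant_complement (restrict TW Ω hΩi)
      (hcard _ ((hA.to_quotient V).to_subgroup Ω)) U' (inv_of_mem fun x q hq => by
        obtain ⟨a, ha, haq⟩ := hq
        refine ⟨T x a, hUi.mem x ha, ?_⟩
        show (QuotientGroup.mk (T x a) : A ⧸ V) = TW x q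
        rw [← onQuot_mk T V hVi x a]
        exact congrArg (TW x) haq) (lift_elementary hΩp U')
    let R : Subgroup A := (R'.map Ω.subtype).comap (QuotientGroup.mk' V)
    have hVR : V ≤ R := fun v hv => by
      rw [Subgroup.mem_comap, QuotientGroup.mk'_apply, (QuotientGroup.eq_one_iff v).mpr hv]
      exact one_mem _
    have hRi : Inv T R := inv_of_mem fun x a ha => by
      obtain ⟨q, hq, hqa⟩ := ha
      refine ⟨restrict TW Ω hΩi x q, hR'i.mem x hq, ?_⟩
      show TW x q = _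
      rw [QuotientGroup.mk'_apply, ← onQuot_mk T V hVi x a]
      exact congrArg (TW x) hqa
    by_cases hRV : R = V
    · have hR'bot : R' = ⊥ := by
        rw [Subgroup.eq_bot_iff_forall]
        rintro ⟨q, a, ha, rfl⟩ hq
        have : a ∈ R := ⟨_, hq, rfl⟩
        rw [hRV] at this
        exact Subtype.ext ((QuotientGroup.eq_one_iff a).mpr this)
      rw [hR'bot, sup_bot_eq] at hR'2
      refine le_antisymm (fun a ha => ?_) (sup_le hUW hVW)
      have h1 : (⟨QuotientGroup.mk' V a, a, ha, rfl⟩ : Ω) ∈ U' := hR'2 ▸ Subgroup.mem_top _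
      obtain ⟨u, hu, hua⟩ := h1
      have : u⁻¹ * a ∈ V := QuotientGroup.eq.mp hua
      simpa using Subgroup.mul_mem_sup hu this
    · exfalso
      apply hUne
      rw [← le_bot_iff, ← hVU]
      intro u hu
      refine ⟨?_, hu⟩
      obtain ⟨q, hq, hqu⟩ := hmeet R hRi hVR hRV hu
      have : q ∈ U' := ⟨u, hu, hqu.symm⟩
      have h1 : q ∈ U' ⊓ R' := ⟨this, hq⟩
      rw [hR'1, Subgroup.mem_bot] at h1
      rw [h1] at hqu
      exact (QuotientGroup.eq_one_iff u).mp hqu.symm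
  have hirr : ∀ B, Inv T B → V ≤ B → B ≤ omega p V 1 → B = V ∨ B = omega p V 1 := by
    intro B hB hVB hBW
    by_cases h : B = V
    · exact Or.inl h
    · exact Or.inr (le_antisymm hBW (hW ▸ hWeq ▸ sup_le (hmeet B hB hVB h) hVB))
  have hlift : ∀ (a : A) (n : ℕ), a ^ n ∈ V → ∃ v ∈ V, (a * v) ^ n = 1 := by
    intro a n hn
    by_cases hn0 : n = 0
    · exact ⟨1, V.one_mem, by rw [hn0, pow_zero]⟩
    obtain ⟨j, m, hm, rfl⟩ := Nat.exists_eq_pow_mul_and_not_dvd hn0 p hp.out.ne_one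
    rw [pow_mul] at hn
    have hcop' : Nat.Coprime m (orderOf (a ^ p ^ j)) := by
      obtain ⟨s, hs⟩ := (hA (a ^ p ^ j))
      exact ((hp.out.coprime_iff_not_dvd.mpr hm).symm.pow_right s).coprime_dvd_right (orderOf_dvd_of_pow_eq_one hs)
    obtain ⟨l, hl⟩ := exists_pow_eq_self_of_coprime hcop'
    have haj : a ^ p ^ j ∈ V := hl ▸ V.pow_mem hn l
    suffices h : ∃ v ∈ V, (a * v) ^ p ^ j = 1 by
      obtain ⟨v, hv, h⟩ := h
      exact ⟨v, hv, by rw [pow_mul, h, one_pow]⟩
    by_cases hje : e ≤ j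
    · exact ⟨1, V.one_mem, by rw [mul_one, ← Nat.add_sub_of_le hje, pow_add, pow_mul, he, one_pow]⟩
    -- the powers cover the layer
    obtain ⟨i, hi⟩ := eq_omega hA T V hVi hirr ((powMonoidHom (α := A) (p ^ (e - j))).range ⊔ V) (by
      intro x
      rw [Subgroup.map_sup, hVi x]
      congr 1
      refine le_antisymm ?_ ?_
      · rintro _ ⟨_, ⟨b, rfl⟩, rfl⟩
        exact ⟨T x b, (map_pow (T x) b _).symm⟩
      · rintro _ ⟨b, rfl⟩
        refine ⟨(T x⁻¹ b) ^ p ^ (e - j), ⟨_, rfl⟩, ?_⟩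
        show T x ((T x⁻¹ b) ^ p ^ (e - j)) = _
        rw [map_pow, ← MulAut.mul_apply, ← map_mul, mul_inv_cancel, map_one]; rfl) le_sup_right
    have hij : j ≤ i := by
      by_contra hlt
      -- an element of maximal height outside `V`
      obtain ⟨u, hu, hu1⟩ : ∃ u ∈ U, u ≠ 1 := by
        by_contra hh; push Not at hh
        exact hUne ((Subgroup.eq_bot_iff_forall _).mpr hh)
      obtain ⟨b, hb⟩ := hUT hu
      rw [powMonoidHom_apply] at hb
      have h1 := (hi (b ^ p ^ (e - j))).mp (Subgroup.mem_sup_left ⟨b, rfl⟩)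
      have h2 : u ∈ V := by
        have h3 := V.pow_mem h1 (p ^ (j - 1 - i))
        rwa [← pow_mul, ← pow_add, ← pow_mul, ← pow_add, ← add_assoc, show e - j + i + (j - 1 - i) = e - 1 by omega, hb] at h3
      exact hu1 (Subgroup.mem_bot.mp (hVU ▸ ⟨h2, hu⟩))
    have ha : a ∈ (powMonoidHom (α := A) (p ^ (e - j))).range ⊔ V := (hi a).mpr (by
      obtain ⟨c, hc⟩ := Nat.exists_eq_add_of_le hij
      rw [hc, pow_add, pow_mul]; exact V.pow_mem haj _)
    obtain ⟨_, ⟨b, rfl⟩, v, hv, hbv⟩ := Subgroup.mem_sup.mp ha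
    refine ⟨v⁻¹, V.inv_mem hv, ?_⟩
    rw [← hbv, mul_inv_cancel_right, powMonoidHom_apply, ← pow_mul, ← pow_add,
      Nat.sub_add_cancel (by omega)]
    exact he b
  obtain ⟨C, hCi, hC1, hC2⟩ := exists_invariant_complement T (hcard A hA) V hVi hlift
  refine ⟨V, C, ?_, ?_, hVi, hCi, hC1, hC2⟩
  · intro hVbot
    subst hVbot
    -- then the bottom layer is irreducible
    apply hB₀2
    have h1 : B₀ = omega p ⊥ 1 := by
      refine (hirr B₀ hB₀ bot_le fun b hb => ?_).resolve_left hB₀1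
      rw [mem_omega, pow_one, hB₀p b hb]; exact one_mem _
    intro a
    rw [h1, mem_omega, pow_one, Subgroup.mem_bot]
  · intro hCbot
    rw [hCbot, sup_bot_eq] at hC2
    exact hUne (by rw [← hVU, hC2, top_inf_eq])

end CfsgLib.CoprimeAbelAut
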